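import Cfsg.Agent.H5.C11.T
import Cfsg.Agent.H8.C7.L4

/-! An element of order eleven centralises every invariant `r`-subgroup of `GL_n`, `n ≤ 6`. -/

set_option autoImplicit false
set_option linter.unusedSimpArgs false
set_option linter.unusedSectionVars false
set_option linter.unusedVariables false

namespace Cfsg.Agent.H5.C11

open Matrix Subgroup Finset
open Cfsg.Agent.H2.S7 (sp sp_conj sp_red conj_iter)
open scoped commutatorElement

variable {F : Type*} [Field F] {ω : F} {p : ℕ} {n : Type} [Fintype n] [DecidableEq n]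

theorem FH.geom (h : FH p ω) (m : ℕ) :
    ∑ k ∈ range 11, (ω ^ m) ^ k = if m % 11 = 0 then 11 else 0 := by
  split_ifs with e
  · rw [pow_eq_pow_mod m h.w, e]; simp
  · refine mul_left_cancel₀ (sub_ne_zero.2 (h.om_pow e)) ?_
    rw [mul_geom_sum, ← pow_mul, mul_comm, pow_mul, h.w]; simp

theorem FH.comp_vec (h : FH p ω) {ι : Type*} (w : ι → ℕ) {W : Submodule F (ι → F)}
    (hW : ∀ v ∈ W, (fun i => ω ^ w i * v i) ∈ W) {v : ι → F} (hv : v ∈ W) (d : ℕ) :
    (fun i => if (w i + d) % 11 = 0 then v i else 0) ∈ W := by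
  have k : ∀ k : ℕ, (fun i => (ω ^ w i) ^ k * v i) ∈ W := fun k => by
    induction k with
    | zero => simpa using hv
    | succ k ih => simpa only [pow_succ', mul_assoc] using hW _ ih
  convert W.smul_mem 11⁻¹ (W.sum_mem fun j (_ : j ∈ range 11) => W.smul_mem ((ω ^ d) ^ j) (k j)) using 1
  ext i
  simp only [Pi.smul_apply, Finset.sum_apply, smul_eq_mul, ← mul_assoc, ← mul_pow, ← pow_add, ← sum_mul,
    h.geom, add_comm d]
  split_ifs <;> simp [h.eleven]

theorem FH.comp_mat (h : FH p ω) (e : n → ℕ) {U : GL n F}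
    (hU : U.1 = diagonal fun i => ω ^ e i) {B : Submodule F (Matrix n n F)}
    (hB : ∀ X ∈ B, U.1 * X * (U⁻¹).1 ∈ B) {X : Matrix n n F} (hX : X ∈ B) (d : ℕ) :
    (of fun i j => if (e i + 10 * e j + d) % 11 = 0 then X i j else 0) ∈ B := by
  have e1 : (U⁻¹).1 = diagonal fun i => ω ^ (10 * e i) := Units.inv_eq_of_mul_eq_one_right (by
    rw [hU, diagonal_mul_diagonal, ← diagonal_one]
    congr 1; ext i
    rw [← pow_add, show e i + 10 * e i = 11 * e i by ring, pow_mul, h.w, one_pow])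
  exact h.comp_vec (fun x : n × n => e x.1 + 10 * e x.2)
    (W := B.comap (LinearEquiv.curry F F n n).toLinearMap) (fun v hv => by
      convert hB _ hv using 1
      refine iff_of_eq (congrArg (· ∈ B) ?_)
      ext i j
      show _ = (U.1 * (of fun i j => v (i, j)) * (U⁻¹).1) i j
      simp [hU, e1, pow_add, mul_right_comm]) (v := fun x => X x.1 x.2) hX d

theorem nil_shift (hn : Fintype.card n < 11) (e : n → ZMod 11) {d : ZMod 11} (hd : d ≠ 0)
    {Y : Matrix n n F} (hY : ∀ i j, Y i j ≠ 0 → e j = e i + d) : Y ^ 10 = 0 := by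
  haveI := Fact.mk (by norm_num : Nat.Prime 11)
  have k : ∀ k : ℕ, ∀ i j, (Y ^ k) i j ≠ 0 → ∀ t ≤ k, ∃ l, e l = e i + t * d := fun k => by
    induction k with
    | zero => exact fun i j _ t ht => ⟨i, by simp [Nat.le_zero.1 ht]⟩
    | succ k ih =>
      intro i j h t ht
      rw [pow_succ', mul_apply] at h
      obtain ⟨l, -, hl⟩ := Finset.exists_ne_zero_of_sum_ne_zero h
      rcases t with _ | t
      · exact ⟨i, by simp⟩
      · obtain ⟨l', e'⟩ := ih l j (right_ne_zero_of_mul hl) t (by omega)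
        exact ⟨l', by rw [e', hY i l (left_ne_zero_of_mul hl)]; push_cast; ring⟩
  ext i j
  by_contra h
  have s : Function.Surjective e := fun c => by
    obtain ⟨l, hl⟩ := k 10 i j h ((c - e i) / d).val (Nat.le_of_lt_succ (ZMod.val_lt _))
    exact ⟨l, by rw [hl, ZMod.natCast_zmod_val, div_mul_cancel₀ _ hd]; ring⟩
  have := Fintype.card_le_of_surjective e s
  rw [ZMod.card] at this
  omega

theorem FH.ab (h : FH p ω) (hn : Fintype.card n < 11) (e : n → ℕ)
    (he : ∀ i j, e i % 11 = e j % 11 → i = j) {U : GL n F} (hU : U.1 = diagonal fun i => ω ^ e i)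
    {x : GL n F} (h2 : ∀ j, Commute x ((MulAut.conj U)^[j] x)) {m : ℕ} (hm : ¬ p ∣ m)
    (hS : x ^ m = 1) : U * x * U⁻¹ = x := by
  haveI := h.finF
  haveI := h.char
  have c : ∀ i k, Commute ((MulAut.conj U)^[i] x) ((MulAut.conj U)^[i + k] x) := fun i k => by
    rw [Function.iterate_add_apply, conj_iter, conj_iter _ _ i]; exact (h2 k).map _
  have k3 : x.1.IsDiag := fun i j hij => by
    haveI : Nonempty n := ⟨i⟩
    have k := sp_red h.prime (S := Set.range fun j => (MulAut.conj U)^[j] x) (by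
      rintro _ ⟨i, rfl⟩ _ ⟨j, rfl⟩
      rcases le_total i j with e | e <;> obtain ⟨k, rfl⟩ := Nat.exists_eq_add_of_le e
      exacts [c i k, (c j k).symm]) hm
      (by rintro _ ⟨i, rfl⟩; simp only [conj_iter, ← map_pow _ x, hS, map_one])
      (h.comp_mat _ hU (sp_conj (S := Set.range _) (by
        rintro _ ⟨i, rfl⟩; exact ⟨i + 1, Function.iterate_succ_apply' _ _ _⟩))
        (Submodule.subset_span ⟨x, ⟨0, rfl⟩, rfl⟩) (10 * e i + e j))
      ⟨10, nil_shift hn (fun i => (e i : ZMod 11)) (d := ((10 * e i + e j : ℕ) : ZMod 11))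
        (fun z => hij (he i j (by have := (ZMod.natCast_eq_zero_iff _ _).1 z; omega)))
        fun a b hab => by
          have : (e a + 10 * e b + (10 * e i + e j)) % 11 = 0 := by
            by_contra z; exact hab (by simp [z])
          rw [← Nat.cast_add, ZMod.natCast_eq_natCast_iff']
          omega⟩
    have z : (e i + 10 * e j + (10 * e i + e j)) % 11 = 0 := by omega
    simpa [z] using congrFun (congrFun k i) j
  rw [mul_inv_eq_iff_eq_mul]
  apply Units.ext
  rw [Units.val_mul, Units.val_mul, hU, ← k3.diagonal_diag, diagonal_mul_diagonal', diagonal_mul_diagonal']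
  simp only [mul_comm]

theorem FH.diag (h : FH p ω) (e : n → ℕ) (he : ∀ i j, e i % 11 = e j % 11 → i = j) {U : GL n F}
    (hU : U.1 = diagonal fun i => ω ^ e i) {x : GL n F} (e' : U * x * U⁻¹ = x) : x.1.IsDiag :=
  fun i j hij => by
  have : (U.1 * x.1) i j = (x.1 * U.1) i j := by
    rw [← Units.val_mul, mul_inv_eq_iff_eq_mul.1 e', Units.val_mul]
  rw [hU, diagonal_mul, mul_diagonal, mul_comm (x.1 i j)] at this
  exact by_contra fun z => h.om_ne (fun w => hij (he i j (by omega))) (mul_right_cancel₀ z this)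

theorem num36 : ∀ a ≤ 36, ∀ b ≤ 36, b ∣ a → a % 11 = b % 11 → 0 < a →
    b = a ∨ a = 23 ∨ 6 ∣ a ∨ 11 ∣ a ∨ 34 ∣ a := fun a ha b hb d e a0 => by
  have := Nat.le_of_dvd a0 d
  rcases (by omega : a = b ∨ a = b + 11 ∨ a = b + 22 ∨ a = b + 33) with rfl | rfl | rfl | rfl
  · simp
  all_goals
    have := (Nat.dvd_add_right dvd_rfl).1 d
    interval_cases b <;> omega

theorem core (hn : Fintype.card n ≤ 6) {Q : Type*} [Group Q] [Finite Q] (ι : Q →* GL n F)
    (φ : Q →* Q) (h11 : ∀ x, φ^[11] x = x) {r : ℕ} (hr : r.Prime) (r11 : r ≠ 11) (hQ : IsPGroup r Q)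
    (cen : ∀ a b x : Q, ⁅a, b⁆ * x = x * ⁅a, b⁆) (fx : ∀ a b : Q, φ ⁅a, b⁆ = ⁅a, b⁆)
    (dg : ∀ a b : Q, (ι ⁅a, b⁆).1.IsDiag) (gen : closure {y | ∃ x, x⁻¹ * φ x = y} = ⊤)
    (a b : Q) : ι ⁅a, b⁆ = 1 := by
  classical
  haveI := Fact.mk hr
  haveI := Fact.mk (by norm_num : Nat.Prime 11)
  apply Units.ext
  rw [← (dg a b).diagonal_diag, Units.val_one, ← diagonal_one]
  congr 1
  ext i0
  have mul : ∀ a b c d : Q, (ι (⁅a, b⁆ * ⁅c, d⁆)).1 i0 i0 = (ι ⁅a, b⁆).1 i0 i0 * (ι ⁅c, d⁆).1 i0 i0 :=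
    fun a b c d => by
      rw [map_mul, Units.val_mul, ← (dg a b).diagonal_diag, diagonal_mul]; simp
  have l : ∀ y y' x : Q, ⁅y * y', x⁆ = ⁅y, x⁆ * ⁅y', x⁆ := fun y y' x => by
    calc ⁅y * y', x⁆ = y * ⁅y', x⁆ * (y⁻¹ * ⁅y, x⁆) := by simp only [commutatorElement_def]; group
      _ = _ := by rw [← cen, mul_assoc, mul_inv_cancel_left, cen]
  have l' : ∀ y x x' : Q, ⁅y, x * x'⁆ = ⁅y, x⁆ * ⁅y, x'⁆ := fun y x x' => by
    calc ⁅y, x * x'⁆ = ⁅y, x⁆ * (x * ⁅y, x'⁆ * x⁻¹) := by simp only [commutatorElement_def]; group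
      _ = _ := by rw [← cen y x' x, mul_inv_cancel_right]
  let χ : Q →* Q →* F :=
    { toFun := fun x =>
        { toFun := fun y => (ι ⁅y, x⁆).1 i0 i0
          map_one' := by simp
          map_mul' := fun y y' => by rw [l, mul] }
      map_one' := by ext y; simp
      map_mul' := fun x x' => by ext y; exact (congrArg (fun z => (ι z).1 i0 i0) (l' y x x')).trans (mul ..) }
  have χd : ∀ x y, χ x y = (ι ⁅y, x⁆).1 i0 i0 := fun _ _ => rfl
  have anti : ∀ x y, χ x y * χ y x = 1 := fun x y => by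
    rw [χd, χd, ← mul, ← commutatorElement_inv, inv_mul_cancel]; simp
  show χ b a = 1
  suffices t : χ.ker = ⊤ from DFunLike.congr_fun (MonoidHom.mem_ker.1 (t.ge (mem_top b))) a
  letI : Fintype (Q ⧸ χ.ker) := Fintype.ofFinite _
  -- the dimension bound
  have bd : Nat.card (Q ⧸ χ.ker) ≤ 36 := by
    let π : Matrix n n F := diagonal fun j =>
      if ∀ a b : Q, (ι ⁅a, b⁆).1 j j = (ι ⁅a, b⁆).1 i0 i0 then 1 else 0
    have π1 : ∀ y : Q, (ι y).1 * π = π * (ι y).1 := fun y => by
      ext j k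
      rw [mul_diagonal, diagonal_mul, mul_comm]
      by_cases z : (ι y).1 j k = 0
      · simp [z]
      have : ∀ a b : Q, (ι ⁅a, b⁆).1 j j = (ι ⁅a, b⁆).1 k k := fun a b => by
        have e : ((ι ⁅a, b⁆).1 * (ι y).1) j k = ((ι y).1 * (ι ⁅a, b⁆).1) j k := by
          rw [← Units.val_mul, ← map_mul, cen, map_mul, Units.val_mul]
        rw [← (dg a b).diagonal_diag, diagonal_mul, mul_diagonal, mul_comm ((ι y).1 j k)] at e
        exact mul_right_cancel₀ z e
      simp only [this]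
    have π2 : ∀ x y : Q, π * (ι ⁅y, x⁆).1 = χ x y • π := fun x y => by
      rw [← (dg y x).diagonal_diag, diagonal_mul_diagonal, ← diagonal_smul]
      congr 1; ext j
      simp only [Pi.smul_apply, smul_eq_mul, diag_apply]
      split_ifs with z
      · rw [z, one_mul, mul_one, χd]
      · simp
    have π3 : ∀ x y : Q, (ι y).1 * (π * (ι x).1) * (ι y⁻¹).1 = χ x y • (π * (ι x).1) := fun x y => by
      rw [← mul_assoc, π1, ← smul_mul_assoc, ← π2, mul_assoc, mul_assoc, mul_assoc, ← Units.val_mul,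
        ← Units.val_mul, ← Units.val_mul, ← map_mul, ← map_mul, ← map_mul]
      congr 3; rw [commutatorElement_def]; group
    have inj : Function.Injective fun q : Q ⧸ χ.ker => χ q.out := fun q q' e => by
      rw [← q.out_eq', ← q'.out_eq', QuotientGroup.eq, MonoidHom.mem_ker, map_mul,
        ← show χ q.out = χ q'.out from e, ← map_mul, inv_mul_cancel, map_one]
    have li := Fintype.linearIndependent_iff.1 ((linearIndependent_monoidHom Q F).comp _ inj)
    have li2 : LinearIndependent F fun q : Q ⧸ χ.ker => π * (ι q.out).1 :=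
      Fintype.linearIndependent_iff.2 fun g hg q => by
        have k : ∀ j k, g q * (π * (ι q.out).1) j k = 0 := fun j k =>
          li (fun q => g q * (π * (ι q.out).1) j k) (funext fun y => by
            have := congrArg (fun Z => ((ι y).1 * Z * (ι y⁻¹).1) j k) hg
            simp only [Finset.mul_sum, Finset.sum_mul, mul_smul_comm, smul_mul_assoc, π3,
              Matrix.mul_zero, Matrix.zero_mul, Matrix.sum_apply, Matrix.smul_apply, smul_eq_mul] at this
            simp only [Finset.sum_apply, Pi.smul_apply, Function.comp, smul_eq_mul]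
            refine Eq.trans (Finset.sum_congr rfl fun q _ => ?_) this
            ring) q
        by_contra z
        have e : π * (ι q.out).1 = 0 := by ext j l; exact (mul_eq_zero.1 (k j l)).resolve_left z
        have : π * (ι q.out).1 * ((ι q.out)⁻¹).1 = π := by rw [mul_assoc, Units.mul_inv, mul_one]
        rw [e, zero_mul] at this
        simpa [π] using congrFun (congrFun this i0) i0
    have := li2.fintype_card_le_finrank
    rw [Module.finrank_matrix, Module.finrank_self, mul_one] at this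
    rw [Nat.card_eq_fintype_card]
    exact this.trans (Nat.mul_le_mul hn hn)
  have inv : χ.ker ≤ χ.ker.comap φ := fun x hx => by
    ext y
    have := DFunLike.congr_fun (MonoidHom.mem_ker.1 hx) (φ^[10] y)
    rwa [χd, ← fx, map_commutatorElement, ← Function.iterate_succ_apply' φ, h11] at this
  let ψ := QuotientGroup.map χ.ker χ.ker φ inv
  have ψ11 : ∀ k (x : Q), ψ^[k] (x : Q ⧸ χ.ker) = (φ^[k] x : Q) := fun k => by
    induction k with
    | zero => exact fun _ => rfl
    | succ k ih => exact fun x => ih (φ x)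
  have md : Nat.card (Q ⧸ χ.ker) ≡ Nat.card (ψ.eqLocus (MonoidHom.id _)) [MOD 11] := by
    let f : Function.End (Q ⧸ χ.ker) := fun q => ψ q
    have := Equiv.Perm.card_fixedPoints_modEq (f := f) (p := 11) (n := 1) (by
      refine (hom_coe_pow (fun g : Function.End (Q ⧸ χ.ker) => (g : _ → _)) rfl (fun _ _ => rfl) f
        (11 ^ 1)).trans (funext fun q => ?_)
      obtain ⟨x, rfl⟩ := QuotientGroup.mk_surjective q
      exact (ψ11 11 x).trans (congrArg _ (h11 x)))
    rwa [← Nat.card_eq_fintype_card, ← Nat.card_eq_fintype_card] at this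
  have dv := card_subgroup_dvd_card (ψ.eqLocus (MonoidHom.id _))
  obtain ⟨k, hk⟩ := IsPGroup.iff_card.1 (hQ.to_quotient χ.ker)
  have pd : ∀ s : ℕ, s.Prime → s ∣ Nat.card (Q ⧸ χ.ker) → s = r := fun s hs d =>
    (Nat.prime_dvd_prime_iff_eq hs hr).1 (hs.dvd_of_dvd_pow (hk ▸ d))
  rcases num36 _ bd _ ((Nat.le_of_dvd Nat.card_pos dv).trans bd) dv md
    Nat.card_pos with e | e | e | e | e
  · have t := eq_top_of_card_eq _ e
    rw [eq_top_iff, ← gen, closure_le]
    rintro _ ⟨x, rfl⟩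
    exact QuotientGroup.eq.1 (t.ge (mem_top (x : Q ⧸ χ.ker)) : ψ x = x).symm
  · haveI := Fact.mk (by norm_num : Nat.Prime 23)
    obtain ⟨g, hg⟩ := (isCyclic_of_prime_card e).exists_monoid_generator
    obtain ⟨x, rfl⟩ := QuotientGroup.mk_surjective g
    have dec : ∀ y : Q, ∃ m : ℕ, (x ^ m)⁻¹ * y ∈ χ.ker := fun y =>
      (hg y).imp fun m hm => QuotientGroup.eq.1 hm
    have hx : x ∈ χ.ker := by
      ext y
      obtain ⟨m, hm⟩ := dec y
      have := anti ((x ^ m)⁻¹ * y) x
      rw [MonoidHom.mem_ker.1 hm, MonoidHom.one_apply, one_mul] at this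
      rw [← mul_inv_cancel_left (x ^ m) y, map_mul, this, map_pow, χd]; simp
    refine eq_top_iff.2 fun y _ => ?_
    obtain ⟨m, hm⟩ := dec y
    exact (mul_mem_cancel_left (inv_mem (pow_mem hx m))).1 hm
  · have := pd 2 Nat.prime_two (Dvd.dvd.trans (by norm_num) e)
    have := pd 3 Nat.prime_three (Dvd.dvd.trans (by norm_num) e)
    omega
  · exact absurd (pd 11 (by norm_num) e).symm r11
  · have := pd 2 Nat.prime_two (Dvd.dvd.trans (by norm_num) e)
    have := pd 17 (by norm_num) (Dvd.dvd.trans (by norm_num) e)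
    omega

/-- `U` centralises every invariant `r`-subgroup, `r ≠ p, 11` -/
theorem fix_r (fh : FH p ω) (hn : Fintype.card n ≤ 6) (e : n → ℕ)
    (he : ∀ i j, e i % 11 = e j % 11 → i = j) {U : GL n F} (hU : U.1 = diagonal fun i => ω ^ e i)
    {r : ℕ} (hr : r.Prime) (rp : r ≠ p) (r11 : r ≠ 11) (Q : Subgroup (GL n F)) :
    IsPGroup r Q → (∀ x ∈ Q, U * x * U⁻¹ ∈ Q) → ∀ x ∈ Q, U * x * U⁻¹ = x := by
  haveI := fh.finF
  haveI := Fact.mk hr
  have U11 : U ^ 11 = 1 := Units.ext (by
    rw [Units.val_pow_eq_pow_val, hU, diagonal_pow, Units.val_one, ← diagonal_one]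
    congr 1; ext i
    simp [← pow_mul, mul_comm _ 11, pow_mul ω 11, fh.w])
  let φ : GL n F →* GL n F := (MulAut.conj U).toMonoidHom
  have h11 : ∀ x, φ^[11] x = x := fun x => by
    rw [MulEquiv.coe_toMonoidHom, conj_iter, U11, map_one, MulAut.one_apply]
  change IsPGroup r Q → (∀ x ∈ Q, φ x ∈ Q) → ∀ x ∈ Q, φ x = x
  induction Q using WellFoundedLT.induction with | ind Q ih => ?_
  intro hQ inv
  have ih' : ∀ R ≤ Q, R ≠ Q → (∀ x ∈ R, φ x ∈ R) → ∀ x ∈ R, φ x = x := fun R a b =>
    ih R (lt_of_le_of_ne a b) (hQ.to_le a)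
  have key : ∀ g ∈ Q, φ (g⁻¹ * φ g) = g⁻¹ * φ g → φ g = g := fun g hg e => by
    obtain ⟨k, hk⟩ := hQ ⟨_, mul_mem (inv_mem hg) (inv g hg)⟩
    have hk' : (g⁻¹ * φ g) ^ r ^ k = 1 := congrArg Subtype.val hk
    obtain ⟨d, hd⟩ : ∃ d, φ g = g * d := ⟨g⁻¹ * φ g, by group⟩
    rw [hd, inv_mul_cancel_left] at e hk'
    have it : ∀ j, φ^[j] g = g * d ^ j := fun j => by
      induction j with
      | zero => simp
      | succ j ih => rw [Function.iterate_succ_apply', ih, map_mul, map_pow, e, hd, pow_succ', mul_assoc]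
    have d11 : d ^ 11 = 1 := by simpa [h11] using (it 11).symm
    have := pow_gcd_eq_one.2 ⟨hk', d11⟩
    rw [Nat.Coprime.pow_left k ((Nat.coprime_primes hr (by norm_num)).2 r11), pow_one] at this
    rw [hd, this, mul_one]
  have le : closure {y | ∃ x ∈ Q, x⁻¹ * φ x = y} ≤ Q := (closure_le _).2 (by
    rintro _ ⟨x, hx, rfl⟩; exact mul_mem (inv_mem hx) (inv x hx))
  by_cases hK : closure {y | ∃ x ∈ Q, x⁻¹ * φ x = y} = Q
  swap
  · refine fun g hg => key g hg (ih' _ le hK (fun y hy => ?_) _ (subset_closure ⟨g, hg, rfl⟩))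
    exact (closure_le (K := comap φ (closure _))).2 (by
      rintro _ ⟨x, hx, rfl⟩
      exact subset_closure ⟨_, inv x hx, by rw [map_mul, map_inv]⟩) hy
  by_cases h0 : Q = ⊥
  · intro x hx; rw [h0, mem_bot] at hx; rw [hx, map_one]
  have cm : ∀ d ∈ ⁅Q, Q⁆, φ d = d := by
    haveI := (nontrivial_iff_ne_bot Q).2 h0
    haveI := hQ.isNilpotent
    refine ih' _ (commutator_le_self _) (fun e => ?_) fun y hy => ?_
    · refine (Group.IsSolvable.commutator_lt_top_of_nontrivial Q).ne (Subgroup.map_injective Q.subtype_injective ?_)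
      rw [map_subtype_commutator, e, ← MonoidHom.range_eq_map, range_subtype]
    · exact commutator_mono (map_le_iff_le_comap.2 inv) (map_le_iff_le_comap.2 inv)
        (map_commutator Q Q φ ▸ mem_map_of_mem φ hy)
  have cen : ∀ d ∈ ⁅Q, Q⁆, ∀ x ∈ Q, d * x = x * d := fun d hd x hx => by
    refine (closure_le (K := centralizer (⁅Q, Q⁆ : Subgroup _))).2 ?_ (hK.ge hx) d hd
    rintro _ ⟨g, hg, rfl⟩ d hd
    have := cm ⁅g, d⁆ (commutator_mem_commutator hg (commutator_le_self _ hd))
    rw [commutatorElement_def, map_mul, map_mul, map_mul, map_inv, map_inv, cm d hd,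
      mul_left_inj] at this
    calc d * (g⁻¹ * φ g) = g⁻¹ * (g * d * g⁻¹) * φ g := by group
      _ = _ := by rw [← this]; group
  let ψ : Q →* Q := (φ.comp Q.subtype).codRestrict Q fun x => inv x x.2
  have hψ : ∀ j (x : Q), (ψ^[j] x : Q) = φ^[j] x := fun j => by
    induction j with
    | zero => exact fun _ => rfl
    | succ j ih => exact fun x => ih (ψ x)
  have ab := core hn Q.subtype ψ (fun x => Subtype.ext ((hψ 11 x).trans (h11 x))) hr r11 hQ
    (fun a b x => Subtype.ext (cen _ (commutator_mem_commutator a.2 b.2) _ x.2))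
    (fun a b => Subtype.ext (cm _ (commutator_mem_commutator a.2 b.2)))
    (fun a b => fh.diag e he hU (cm _ (commutator_mem_commutator a.2 b.2))) (by
      apply Subgroup.map_injective Q.subtype_injective
      rw [← MonoidHom.range_eq_map, range_subtype, MonoidHom.map_closure]
      refine Eq.trans (congrArg _ ?_) hK
      ext y
      exact ⟨by rintro ⟨_, ⟨x, rfl⟩, rfl⟩; exact ⟨x, x.2, rfl⟩,
        by rintro ⟨x, hx, rfl⟩; exact ⟨_, ⟨⟨x, hx⟩, rfl⟩, rfl⟩⟩)
  intro x hx
  obtain ⟨k, hk⟩ := hQ ⟨x, hx⟩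
  refine fh.ab (by omega) e he hU (m := r ^ k) (fun j => ?_)
    (fun d => rp ((Nat.prime_dvd_prime_iff_eq fh.prime hr).1 (fh.prime.dvd_of_dvd_pow d)).symm)
    (congrArg Subtype.val hk)
  have := ab ⟨x, hx⟩ (ψ^[j] ⟨x, hx⟩)
  rw [map_commutatorElement, commutatorElement_eq_one_iff_commute, coe_subtype, hψ] at this
  exact this

end Cfsg.Agent.H5.C11
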