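import Cfsg.Agent.H5.C11.Red
import Cfsg.Agent.L.X1

/-! The reduction step of the X-lemma in the explicit model. -/

set_option autoImplicit false
set_option linter.unusedSimpArgs false
set_option linter.unusedSectionVars false
set_option linter.unusedVariables false

namespace Cfsg.Agent.H5.C11

open Matrix Cfsg.Agent.L.X11

variable {F : Type*} [Field F] {g : F} {C : Type*} [Group C] {p : ℕ} {ω : F} {π : C →* GL (Fin 5) F}
  {ψ : C →* GL (Fin 6) F} {σ u f : C}

theorem RZ_map (hg : g * g = -11) : RZ.map (ev hg) = bl 1 1 1 (-1) := by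
  ext i j; fin_cases i <;> fin_cases j <;> simp [RZ, bl]

theorem xZ_map (hg : g * g = -11) : xZ.map (ev hg) = bl 1 1 1 !![0, -1; 1, -1] := by
  ext i j; fin_cases i <;> fin_cases j <;> simp [xZ, bl]

theorem EJ_map (hg : g * g = -11) (κ : F) :
    1 - E0Z.map (ev hg) + κ • JZ.map (ev hg) = bl 1 1 1 !![κ, -2 * κ; 2 * κ, -κ] := by
  ext i j; fin_cases i <;> fin_cases j <;> simp [E0Z, JZ, bl, map_ofNat, mul_comm]

/-- X from (γ) and (β) -/
theorem X_of (h : XS p ω g π ψ σ u f) (hγ : ∀ x : C, Rp h.hg (π x) 0 xZ → ∃ k : C, Rp h.hg (π k) 0 RZ)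
    (hβ : ∀ (ρ : C) (s κ : F), InY u f ρ → ρ * ρ = 1 ∨ ρ * ρ = σ → s = 1 ∨ s = -1 → 3 * κ ^ 2 = -1 →
      (π ρ).1 = s • (1 - E0Z.map (ev h.hg) + κ • JZ.map (ev h.hg)) → False)
    (c : C) (hc : InY u f c) (c2 : c * c = 1 ∨ c * c = σ) : c = 1 ∨ c = σ :=
  RS.red (π := π) (y := yy u f)
    { finF := h.fh.finF
      h2 := h.fh.two
      cen := h.cen
      σ1 := h.σ1
      πσ := h.πσ
      kerU := h.kerU
      scU := h.scU
      hf := by rw [Rp.zero.1 h.hf]; ext i j; fin_cases i <;> fin_cases j <;> simp [fZ, bl]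
      hz := by rw [Rp.zero.1 h.r_z2]; ext i j; fin_cases i <;> fin_cases j <;> simp [z2Z, bl]
      hy := by rw [Rp.zero.1 h.r_yy]; ext i j; fin_cases i <;> fin_cases j <;> simp [yZ]
      e12 := h.e12
      hα := fun k => ⟨fun e => h.alpha k 1 (one_mul 1) (by rw [e, RZ_map, one_smul]),
        fun e => h.alpha k (-1) (by simp) (by rw [e, RZ_map, bl_smul]; simp)⟩
      hγ := fun k e => by
        obtain ⟨k', e'⟩ := hγ k (Rp.zero.2 (by rw [e, xZ_map]))
        exact h.alpha k' 1 (one_mul 1) (by rw [Rp.zero.1 e', one_smul])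
      hβ := fun ρ s κ a b c d e k => hβ ρ s κ ⟨a, b⟩ c d e (by rw [k, EJ_map]) } c hc.1 hc.2 c2

end Cfsg.Agent.H5.C11
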