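import Cfsg.Agent.H8.C7.T

/-! The stabiliser of the splitting `W₀ ⊕ W₁ ⊕ ⋯ ⊕ W₅` for `11^{1+2}` (abstract form). -/

set_option autoImplicit false
set_option linter.unusedSimpArgs false
set_option linter.unusedSectionVars false
set_option linter.unusedVariables false

namespace Cfsg.Agent.H5.C11

open Matrix OnePoint Cfsg.Agent.H5.T3 Cfsg.Agent.H5.C5 Cfsg.Agent.H8 Cfsg.Agent.H7
open Cfsg.Agent.H2.S7 (scal_of_tw)

local notation "pk" => Matrix.ProjGenLinGroup.mk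

variable {F : Type*} [Field F]

/-- the hypotheses on the field -/
structure FH (p : ℕ) (ω : F) : Prop where
  prime : p.Prime
  char : CharP F p
  finF : Finite F
  cd : (Nat.card F = p ∧ p % 11 = 1) ∨
    (Nat.card F = p ^ 5 ∧ (p % 11 = 3 ∨ p % 11 = 4 ∨ p % 11 = 5 ∨ p % 11 = 9))
  w : ω ^ 11 = 1
  w1 : ω ≠ 1

namespace FH

variable {p : ℕ} {ω : F} (h : FH p ω)
include h

theorem om0 : ω ≠ 0 := by
  intro e; have := h.w; rw [e] at this; simp at this

theorem om_pow {k : ℕ} (hk : k % 11 ≠ 0) : ω ^ k ≠ 1 := by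
  intro e
  have := pow_gcd_eq_one.2 ⟨e, h.w⟩
  rw [show Nat.gcd k 11 = 1 from Nat.coprime_comm.1 ((Nat.Prime.coprime_iff_not_dvd (by norm_num)).2
    fun d => hk (Nat.mod_eq_zero_of_dvd d)), pow_one] at this
  exact h.w1 this

theorem om_ne {k l : ℕ} (hk : (k + 10 * l) % 11 ≠ 0) : ω ^ k ≠ ω ^ l := fun e => h.om_pow hk (by
  rw [pow_add, e, ← pow_add, show l + 10 * l = 11 * l by ring, pow_mul, h.w, one_pow])

theorem ne {k l : ℕ} (hk : (k + 10 * l) % 11 ≠ 0) : ω ^ k - ω ^ l ≠ 0 := sub_ne_zero.2 (h.om_ne hk)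

theorem ne_zero {n : ℕ} (hn : n.Prime) (hne : p ≠ n) : (n : F) ≠ 0 := fun e =>
  haveI := h.char
  hne ((Nat.prime_dvd_prime_iff_eq h.prime hn).1 ((CharP.cast_eq_zero_iff F p n).1 e))

theorem two : (2 : F) ≠ 0 := by
  exact_mod_cast h.ne_zero (n := 2) Nat.prime_two (by rcases h.cd with k | k <;> omega)

theorem eleven : (11 : F) ≠ 0 := by
  exact_mod_cast h.ne_zero (n := 11) (by norm_num) (by rcases h.cd with k | k <;> omega)

theorem card_sub (k : Subfield F) : k = ⊤ ∨ Nat.card k = p ∧ Nat.card F = p ^ 5 := by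
  haveI := h.finF
  haveI := h.char
  haveI := Fact.mk h.prime
  have e := Module.natCard_eq_pow_finrank (K := k) (V := F)
  letI := Fintype.ofFinite k
  obtain ⟨n, -, hn⟩ := FiniteField.card k p
  rw [← Nat.card_eq_fintype_card] at hn
  have t : Module.finrank k F = 1 → k = ⊤ := fun e1 => by
    rw [e1, pow_one] at e
    exact SetLike.coe_injective (Set.eq_univ_of_forall fun x =>
      ((Function.Injective.bijective_of_nat_card_le Subtype.val_injective e.le).2 x).elim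
        fun y hy => hy ▸ y.2)
  rw [hn, ← pow_mul] at e
  rcases h.cd with ⟨k1, -⟩ | ⟨k1, -⟩
  · exact Or.inl (t (Nat.eq_one_of_mul_eq_one_left (Nat.pow_right_injective h.prime.two_le
      (e.symm.trans (k1.trans (pow_one p).symm)))))
  · have e3 := Nat.pow_right_injective h.prime.two_le (e.symm.trans k1)
    rcases (Nat.dvd_prime Nat.prime_five).1 (Dvd.intro _ e3) with e4 | e4
    · exact Or.inr ⟨by rw [hn, e4, pow_one], k1⟩
    · exact Or.inl (t (by rw [e4] at e3; omega))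

theorem gen (k : Subfield F) (hk : ω + ω ^ 10 ∈ k) : k = ⊤ := by
  refine (h.card_sub k).resolve_right fun ⟨k1, k2⟩ => ?_
  haveI := h.finF
  haveI := h.char
  haveI := Fact.mk h.prime
  letI := Fintype.ofFinite k
  have e : (ω + ω ^ 10) ^ p = ω + ω ^ 10 := by
    have := FiniteField.pow_card (⟨_, hk⟩ : k)
    rw [← Nat.card_eq_fintype_card, k1] at this
    exact congrArg Subtype.val this
  have w := h.w
  rw [add_pow_char, ← pow_mul, pow_eq_pow_mod p w, pow_eq_pow_mod (10 * p) w, Nat.mul_mod] at e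
  rcases h.cd with ⟨k3, -⟩ | ⟨-, k3 | k3 | k3 | k3⟩
  · have := Nat.pow_right_injective h.prime.two_le (k2.symm.trans (k3.trans (pow_one p).symm))
    omega
  · rw [k3] at e
    exact mul_ne_zero (h.ne (k := 3) (l := 1) (by norm_num)) (h.ne (k := 0) (l := 7) (by norm_num))
      (by linear_combination e)
  · rw [k3] at e
    exact mul_ne_zero (h.ne (k := 4) (l := 1) (by norm_num)) (h.ne (k := 0) (l := 6) (by norm_num))
      (by linear_combination e)
  · rw [k3] at e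
    exact mul_ne_zero (h.ne (k := 5) (l := 1) (by norm_num)) (h.ne (k := 0) (l := 5) (by norm_num))
      (by linear_combination e)
  · rw [k3] at e
    exact mul_ne_zero (h.ne (k := 9) (l := 1) (by norm_num)) (h.ne (k := 0) (l := 1) (by norm_num))
      (by linear_combination e)

theorem inM_of_mk {X : Subgroup (GL (Fin 2) F)} {t : GL (Fin 2) F} (ht : t.1 ^ p = 1)
    (hm : pk t ∈ X.map pk) : InM X t.1 := by
  haveI := h.finF
  haveI := h.char
  haveI := Fact.mk h.prime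
  letI := Fintype.ofFinite F
  obtain ⟨n, -, hn⟩ := FiniteField.card F p
  obtain ⟨x, hx, e⟩ := hm
  obtain ⟨c, hc, e⟩ := exists_smul_of_mk_eq e.symm
  have e1 : x.1 = c • t.1 := by ext i j; simp [e]
  have h1 := (InM.of hx).pow (Fintype.card F)
  rw [e1, _root_.smul_pow, FiniteField.pow_card, hn, ← Nat.succ_pred_eq_of_pos n.pos, pow_succ',
    pow_mul, ht, one_pow] at h1
  have h2 := h1.inv (Y := c⁻¹ • 1) (by simp [smul_smul, hc])
  exact (h2.mul (InM.of hx)).congr (by rw [e1]; simp [smul_smul, hc])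

theorem dick11 {X : Subgroup (GL (Fin 2) F)} (ha : InM X !![ω, 0; 0, ω ^ 10])
    (hs : ∃ s ∈ X, s 0 0 = 0 ∧ s 1 1 = 0)
    (hf : ∃ f ∈ X, (f 0 0 ≠ 0 ∨ f 1 1 ≠ 0) ∧ (f 0 1 ≠ 0 ∨ f 1 0 ≠ 0)) : SLin X := by
  haveI := h.char
  haveI := h.finF
  haveI : Fact p.Prime := ⟨h.prime⟩
  obtain ⟨a, haX, ha⟩ := ha
  obtain ⟨s, hsX, s0, s1⟩ := hs
  obtain ⟨f, hfX, f0, f1⟩ := hf
  have w := h.w
  have an : ∀ n, (a ^ n).1 = !![ω ^ n, 0; 0, ω ^ (10 * n)] := fun n => by
    induction n with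
    | zero => ext i j; fin_cases i <;> fin_cases j <;> simp
    | succ n ih => rw [pow_succ, Units.val_mul, ih, ha]; simp [pow_succ, mul_add, pow_add, mul_assoc]
  have hne : ω ≠ ω ^ 10 := by simpa using h.om_ne (k := 1) (l := 10) (by norm_num)
  have hsd := s.det_ne_zero
  rw [det_fin_two, s0] at hsd
  have s01 : s 0 1 ≠ 0 := fun e => hsd (by rw [e]; ring)
  have s10 : s 1 0 ≠ 0 := fun e => hsd (by rw [e]; ring)
  have pair : ∀ {K : Type _} [Field K] [Algebra F K] (x y : OnePoint K),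
      X.map pk ≤ pairStab F x y → (x = ∞ ∨ x = ((0 : K) : OnePoint K)) ∧
        (y = ∞ ∨ y = ((0 : K) : OnePoint K)) := by
    intro K _ _ x y hH
    have h1 : pk (a ^ 2) • x = x ∧ pk (a ^ 2) • y = y := by
      rw [sq, map_mul, mul_smul, mul_smul]
      rcases hH ⟨a, haX, rfl⟩ with ⟨e1, e2⟩ | ⟨e1, e2⟩
      · rw [e1, e1, e2, e2]; exact ⟨rfl, rfl⟩
      · rw [e1, e2, e1]; exact ⟨rfl, rfl⟩
    have := h.om_ne (k := 2) (l := 10 * 2) (by norm_num)
    exact ⟨fix_diag (an 2) this h1.1, fix_diag (an 2) this h1.2⟩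
  rcases H3.dickson2 p (X.map pk) with ⟨x, hx⟩ | ⟨x, y, hxy, hx⟩ | ⟨t, a', b', ht, hx⟩ | hx | ⟨k, g, -, hx⟩
  · exfalso
    have h1 : pk s • x = x := hx ⟨s, hsX, rfl⟩
    rcases fix_diag ha hne (hx ⟨a, haX, rfl⟩ : pk a • x = x) with rfl | rfl
    · exact s10 (smul_infty_eq_infty.1 h1)
    · rw [smul_coe_eq_coe] at h1
      exact s01 (by simpa using h1)
  · exfalso
    have hp := pair x y hx
    have h1 := hx ⟨f, hfX, rfl⟩
    have key : (pk f • (∞ : OnePoint F) = ∞ ∧ pk f • ((0 : F) : OnePoint F) = ((0 : F) : OnePoint F)) ∨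
        (pk f • (∞ : OnePoint F) = ((0 : F) : OnePoint F) ∧ pk f • ((0 : F) : OnePoint F) = ∞) := by
      obtain ⟨rfl | rfl, rfl | rfl⟩ := hp
      · exact absurd rfl hxy
      · exact h1
      · exact h1.imp And.symm And.symm
      · exact absurd rfl hxy
    rcases key with ⟨e1, e2⟩ | ⟨e1, e2⟩
    · rw [smul_infty_eq_infty] at e1
      rw [smul_coe_eq_coe] at e2
      exact f1.elim (fun e => e (by simpa using e2)) (fun e => e e1)
    · rw [smul_infty_eq_coe] at e1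
      rw [smul_coe_eq_infty] at e2
      exact f0.elim (fun e => e (by simpa using e1)) (fun e => e (by simpa using e2))
  · exfalso
    rcases (pair _ _ hx).1 with e | e
    · exact coe_ne_infty _ e
    · exact ht.not_mem 0 (by rw [map_zero]; exact (coe_eq_coe.1 e).symm)
  · exfalso
    have k1 := hx.1 _ ⟨a, haX, rfl⟩
    have k2 := orderOf_pos (pk a)
    have k3 := pow_orderOf_eq_one (pk a)
    rw [← map_pow, mk_eq_one_iff] at k3
    generalize orderOf (pk a) = n at k1 k2 k3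
    exact h.om_ne (k := n) (l := 10 * n) (by omega) (by simpa [an] using k3.2.2)
  · have k1 : g⁻¹ * pk a * g ∈ PG k := by
      have : pk a ∈ X.map pk := ⟨a, haX, rfl⟩
      rcases hx with hx | hx <;> rw [hx, mem_cj] at this
      exacts [PS_le_PG _ this, this]
    obtain ⟨G, rfl⟩ := ProjGenLinGroup.mk_surjective g
    obtain ⟨b, e, hb⟩ := mem_PG.1 k1
    rw [← map_inv, ← map_mul, ← map_mul] at e
    obtain ⟨c, hc, e⟩ := exists_smul_of_mk_eq e.symm
    have e1 : b.1 = c • (G⁻¹ * a * G).1 := by ext i j; simp [e]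
    have e2 : b.1.trace = c * (ω + ω ^ 10) := by
      rw [e1, trace_smul, Units.val_mul, Units.val_mul, trace_units_conj', ha]; simp
    have e3 : b.1.det = c ^ 2 := by
      rw [e1, det_smul, Units.val_mul, Units.val_mul, det_units_conj', ha, det_fin_two_of, ← pow_succ', w]
      simp
    have e4 : (ω + ω ^ 10) ^ 2 ∈ k := by
      have : b.1.trace ^ 2 / b.1.det ∈ k := by
        rw [trace_fin_two, det_fin_two]
        exact div_mem (pow_mem (add_mem (hb _ _) (hb _ _)) 2)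
          (sub_mem (mul_mem (hb _ _) (hb _ _)) (mul_mem (hb _ _) (hb _ _)))
      rwa [e2, e3, mul_pow, mul_div_cancel_left₀ _ (pow_ne_zero 2 hc)] at this
    have t : (2 : F) ∈ k := by exact_mod_cast natCast_mem k 2
    obtain rfl := h.gen k (by
      have := sub_mem (pow_mem (sub_mem (pow_mem (sub_mem (pow_mem (sub_mem (pow_mem
        (sub_mem e4 t) 2) t) 2) t) 2) t) 2) t
      rwa [show (ω + ω ^ 10) ^ 2 - 2 = ω ^ 2 + ω ^ 9 by linear_combination (2 + ω ^ 9) * w,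
        show (ω ^ 2 + ω ^ 9) ^ 2 - 2 = ω ^ 4 + ω ^ 7 by linear_combination (2 + ω ^ 7) * w,
        show (ω ^ 4 + ω ^ 7) ^ 2 - 2 = ω ^ 8 + ω ^ 3 by linear_combination (2 + ω ^ 3) * w,
        show (ω ^ 8 + ω ^ 3) ^ 2 - 2 = ω ^ 5 + ω ^ 6 by linear_combination (2 + ω ^ 5) * w,
        show (ω ^ 5 + ω ^ 6) ^ 2 - 2 = ω + ω ^ 10 by linear_combination (2 + ω) * w] at this)
    have hL : Lsub F ≤ X.map pk := by
      intro y hy
      have hy' : (pk G)⁻¹ * y * pk G ∈ PS (⊤ : Subfield F) := by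
        rw [PS_top]; exact (Lsub_normal).conj_mem' y hy _
      rcases hx with hx | hx <;> rw [hx, mem_cj]
      · exact hy'
      · exact PS_le_PG _ hy'
    have hp0 : (p : F) = 0 := CharP.cast_eq_zero F p
    apply slin_of
    · intro c
      refine h.inM_of_mk (t := mat 1 c 0 1 (by simp)) ?_ (hL (mk_mem_Lsub.2 ⟨1, by simp⟩))
      show (!![1, c; 0, 1] : Matrix (Fin 2) (Fin 2) F) ^ p = 1
      rw [up_pow, hp0]; ext i j; fin_cases i <;> fin_cases j <;> simp
    · intro c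
      refine h.inM_of_mk (t := mat 1 0 c 1 (by simp)) ?_ (hL (mk_mem_Lsub.2 ⟨1, by simp⟩))
      show (!![1, 0; c, 1] : Matrix (Fin 2) (Fin 2) F) ^ p = 1
      rw [lo_pow, hp0]; ext i j; fin_cases i <;> fin_cases j <;> simp

end FH

/-- the abstract setting: `r0` is the action on `⟨e₀⟩`, `r i` the one on `⟨e_{a i}, e_{-a i}⟩`,
and `D d` says that the diagonal matrix `d` lies in the overgroup -/
structure TS (p : ℕ) (ω : F) {H : Type*} [Group H] (r0 : H →* GL (Fin 1) F)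
    (r : Fin 5 → H →* GL (Fin 2) F) (a : Fin 5 → Fin 11) (D : (Fin 11 → F) → Prop) : Prop where
  fh : FH p ω
  ha : (∀ i, a i ≠ 0) ∧ (∀ i j, a i = a j ∨ a i = -a j → i = j) ∧
    ∀ y, y ≠ 0 → ∃ i, y = a i ∨ y = -a i
  cyc : ∀ g, ∃ g', ∀ i, r (i + 1) g' = r i g
  exρ : ∃ g, (r 0 g).1 = !![ω, 0; 0, ω ^ 10]
  exσ : ∃ g, r 0 g 0 0 = 0 ∧ r 0 g 1 1 = 0
  nbig : ¬ ∀ c : F, ∃ z, r0 z = 1 ∧ (∀ i, i ≠ 0 → r i z = 1) ∧ (r 0 z).1 = !![1, c; 0, 1]
  toD : ∀ d z, (r0 z).1 = !![d 0] → (∀ i, (r i z).1 = !![d (a i), 0; 0, d (-a i)]) → D d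
  ofD : ∀ d, D d → ∃ z, ∀ i, (r i z).1 = !![d (a i), 0; 0, d (-a i)]
  shift : ∀ d, D d → D fun x => d (x + 1)

variable {H : Type*} [Group H]

theorem scal_of_comm {r : H →* GL (Fin 2) F} {S : Subgroup H} (hS : SLin (S.map r)) {g : H}
    (hc : ∀ k ∈ S, IsScal (r (g * k * g⁻¹ * k⁻¹)).1) : IsScal (r g).1 :=
  scal_of_tw fun Y hY => by
    obtain ⟨_, ⟨k, hk, rfl⟩, rfl⟩ := hS Y hY
    obtain ⟨c, e⟩ := hc k hk
    refine ⟨c, ?_⟩
    rw [← smul_one_mul, ← e, ← Units.val_mul, ← Units.val_mul, ← Units.val_mul, ← map_mul, ← map_mul,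
      ← map_mul]
    congr 2; group

theorem comm_one {r : H →* GL (Fin 2) F} {g k : H}
    (hc : IsScal (r g).1 ∨ IsScal (r k).1) : r (g * k * g⁻¹ * k⁻¹) = 1 := H2.S7.Hy.comm_one hc

theorem comm_r0 (r0 : H →* GL (Fin 1) F) (g k : H) : r0 (g * k * g⁻¹ * k⁻¹) = 1 := by
  rw [map_mul, map_mul, map_mul, map_inv, map_inv, mul_inv_eq_one, mul_inv_eq_iff_eq_mul]
  apply Units.ext
  ext i j; simp [mul_apply, mul_comm, Subsingleton.elim i 0, Subsingleton.elim j 0]

theorem scal_diag {a b : F} : IsScal !![a, 0; 0, b] ↔ a = b := ⟨fun ⟨c, e⟩ => by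
    simp [← Matrix.ext_iff, Fin.forall_fin_succ] at e; rw [e.1, e.2], fun e => ⟨a, by
      subst e; ext i j; fin_cases i <;> fin_cases j <;> simp⟩⟩

theorem signs (h2 : (2 : F) ≠ 0) (d : Fin 11 → F) (h0 : d 0 = 1) (hs : ∀ x, d (-x) = d x)
    (hq : ∀ x, d x = 1 ∨ d x = -1) (hx : ∃ x, d x = -1)
    (hk : ∀ k y, y ≠ 0 → d (y + k) = d (-y + k) → ∀ y', y' ≠ 0 → d (y' + k) = d (-y' + k)) : False := by
  obtain ⟨x, hx⟩ := hx
  have key : ∀ k, k ≠ 0 → ∀ y, y ≠ 0 → d (y + k) ≠ d (-y + k) := fun k k0 y y0 e => by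
    have s : ∀ y', d (y' + k) = d (-y' + k) := fun y' => by
      by_cases e' : y' = 0
      · rw [e', neg_zero]
      · exact hk k y y0 e y' e'
    have per : ∀ n : ℕ, d (n • (k + k)) = 1 := fun n => by
      induction n with
      | zero => rw [zero_smul, h0]
      | succ n ih => rw [succ_nsmul, ← add_assoc, s, neg_add, neg_add_cancel_right, hs, ih]
    obtain ⟨n, rfl⟩ := (by decide +kernel : ∀ k : Fin 11, k ≠ 0 → ∀ x : Fin 11, ∃ n : Fin 11,
      x = n.1 • (k + k)) k k0 x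
    rw [per] at hx
    exact h2 (by linear_combination hx)
  have a : d 1 ≠ d 2 := key 7 (by decide) 5 (by decide)
  have b : d 1 ≠ d 3 := key 2 (by decide) 10 (by decide)
  have c : d 2 ≠ d 3 := key 8 (by decide) 5 (by decide)
  rcases hq 1 with e1 | e1 <;> rcases hq 2 with e2 | e2 <;> rcases hq 3 with e3 | e3 <;> simp_all

namespace TS

variable {p : ℕ} {ω : F} {r0 : H →* GL (Fin 1) F} {r : Fin 5 → H →* GL (Fin 2) F}
  {a : Fin 5 → Fin 11} {D : (Fin 11 → F) → Prop} (h : TS p ω r0 r a D)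
include h

theorem cycn (k : Fin 5) (g : H) : ∃ g', ∀ i, r (i + k) g' = r i g := by
  have s : ∀ k : Fin 5, (∀ g, ∃ g', ∀ i, r (i + k) g' = r i g) →
      ∀ g, ∃ g', ∀ i, r (i + (k + 1)) g' = r i g := fun k ih g => by
    obtain ⟨g1, h1⟩ := ih g
    obtain ⟨g2, h2⟩ := h.cyc g1
    exact ⟨g2, fun i => by rw [← add_assoc, h2, h1]⟩
  have z : ∀ g, ∃ g', ∀ i, r (i + 0) g' = r i g := fun g => ⟨g, fun i => by rw [add_zero]⟩
  fin_cases k
  exacts [z g, s _ z g, s _ (s _ z) g, s _ (s _ (s _ z)) g, s _ (s _ (s _ (s _ z))) g]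

theorem shiftn (d : Fin 11 → F) (hd : D d) (k : Fin 11) : D fun x => d (x + k) := by
  have : ∀ n : ℕ, D fun x => d (x + n • (1 : Fin 11)) := fun n => by
    induction n with
    | zero => simpa using hd
    | succ n ih =>
      convert h.shift _ ih using 3
      rw [succ_nsmul, add_assoc, add_comm 1]
  obtain ⟨n, rfl⟩ := (by decide : ∀ k : Fin 11, ∃ n : Fin 11, k = n.1 • (1 : Fin 11)) k
  exact this n

/-- a non-monomial element on the first plane gives `SL₂` there -/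
theorem slin_r1 (g : H) (h1 : r 0 g 0 0 ≠ 0 ∨ r 0 g 1 1 ≠ 0)
    (h2 : r 0 g 0 1 ≠ 0 ∨ r 0 g 1 0 ≠ 0) : SLin (r 0).range := by
  obtain ⟨x, q1⟩ := h.exρ
  obtain ⟨s, s1⟩ := h.exσ
  exact h.fh.dick11 ⟨_, ⟨x, rfl⟩, q1⟩ ⟨_, ⟨s, rfl⟩, s1⟩ ⟨_, ⟨g, rfl⟩, h1, h2⟩

variable (h1 : SLin (r 0).range)
include h1

theorem slin_all (j : Fin 5) : SLin (r j).range := fun Y hY => by
  obtain ⟨_, ⟨g, rfl⟩, e⟩ := h1 Y hY
  obtain ⟨g', hg⟩ := h.cycn j g
  exact ⟨_, ⟨g', rfl⟩, by rw [← e, ← hg 0, zero_add]⟩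

theorem slin_map (j : Fin 5) (S : Subgroup H) [hS : S.Normal] {y : H} (hy : y ∈ S)
    (hn : ¬ IsScal (r j y).1) : SLin (S.map (r j)) :=
  slin_of_normal h.fh.om0 (h.fh.om_pow (by norm_num)) (by
    rintro G G' _ hG hG' ⟨_, ⟨z, z0, rfl⟩, rfl⟩
    obtain ⟨_, ⟨w, rfl⟩, e⟩ := h.slin_all h1 j G hG
    exact ⟨_, ⟨w * z * w⁻¹, hS.conj_mem z z0 w, rfl⟩, by
      rw [map_mul, map_mul, map_inv, Units.val_mul, Units.val_mul, e,
        Units.inv_eq_of_mul_eq_one_right (e ▸ hG')]⟩) (InM.of ⟨y, hy, rfl⟩) hn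

/-- scalar on four planes implies scalar on the fifth -/
theorem TA0 (g : H) (h2 : ∀ i, i ≠ 0 → IsScal (r i g).1) : IsScal (r 0 g).1 := by
  refine scal_of_comm (S := ⊤) (by rwa [← MonoidHom.range_eq_map]) fun k _ =>
    by_contra fun e => h.nbig fun c => ?_
  obtain ⟨_, ⟨z, ⟨z0, z2⟩, rfl⟩, e⟩ := h.slin_map h1 0
    (r0.ker ⊓ (MonoidHom.pi fun i : {i : Fin 5 // i ≠ 0} => r i).ker)
    ⟨comm_r0 r0 g k, MonoidHom.mem_ker.2 (funext fun i => comm_one (Or.inl (h2 i i.2)))⟩ e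
    !![1, c; 0, 1] (by simp [det_fin_two])
  exact ⟨z, z0, fun i hi => congrFun (MonoidHom.mem_ker.1 z2) ⟨i, hi⟩, e⟩

theorem TA (j : Fin 5) (g : H) (h2 : ∀ i, i ≠ j → IsScal (r i g).1) : IsScal (r j g).1 := by
  obtain ⟨g', hg⟩ := h.cycn (-j) g
  rw [← hg j, add_neg_cancel]
  refine h.TA0 h1 g' fun i hi => ?_
  rw [← add_neg_cancel_right i j, hg]
  exact h2 _ (by simpa using hi)

theorem TBn (n : ℕ) : ∀ I : Finset (Fin 5), I.Nonempty → 5 ≤ I.card + n → ∀ g,
    (∀ i ∈ I, IsScal (r i g).1) → ∀ j, IsScal (r j g).1 := by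
  induction n with
  | zero =>
    intro I _ hI g hg j
    refine hg j ?_
    rw [Finset.eq_univ_of_card I (le_antisymm (Finset.card_le_univ I) (by simpa using hI))]
    exact Finset.mem_univ j
  | succ n ih =>
    intro I hI hc g hg
    have ins : ∀ j ∉ I, ∀ g, (∀ i ∈ I, IsScal (r i g).1) → IsScal (r j g).1 →
        ∀ j, IsScal (r j g).1 := fun j hj g hg e => ih (insert j I) (Finset.insert_nonempty _ _)
      (by rw [Finset.card_insert_of_notMem hj]; omega) g (by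
        intro i hi
        rcases Finset.mem_insert.1 hi with rfl | hi
        exacts [e, hg i hi])
    rcases (by decide +kernel : ∀ I : Finset (Fin 5), I.Nonempty → (∃ j, ∀ i, i ≠ j → i ∈ I) ∨
      ∃ k j0 i0, j0 ∉ I ∧ j0 + k ∉ I ∧ i0 ∈ I ∧ i0 + k ∉ I) I hI with ⟨j, hj⟩ | ⟨k, j0, i0, a1, a2, a3, a4⟩
    · intro i
      by_cases e : i = j
      · exact e ▸ h.TA h1 j g fun i hi => hg i (hj i hi)
      · exact hg i (hj i e)
    · by_contra e
      obtain ⟨g', hg'⟩ := h.cycn k g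
      refine e (ins _ a2 g hg (scal_of_comm (h.slin_map h1 (j0 + k)
        ((Geo.scalars (Fin 2) F).comap (r (i0 + k))) (y := g')
        ((mem_scalars_iff_isScal _).2 (by rw [hg']; exact hg _ a3))
        fun e' => e (ins _ a1 g hg (by rwa [hg'] at e'))) fun x hx => ins _ a4 _ (fun i hi => ?_) ?_ _))
      · rw [comm_one (Or.inl (hg i hi))]; exact ⟨1, by simp⟩
      · rw [comm_one (Or.inr ((mem_scalars_iff_isScal _).1 hx))]; exact ⟨1, by simp⟩

/-- scalar on one plane implies scalar on all -/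
theorem TB {g : H} {i : Fin 5} (hi : IsScal (r i g).1) (j : Fin 5) : IsScal (r j g).1 :=
  h.TBn h1 4 {i} (Finset.singleton_nonempty i) (by simp) g (by simpa using hi) j

theorem T_odd : False := by
  obtain ⟨x, q1⟩ := h.exρ
  obtain ⟨k, -, hk⟩ : ∃ k ∈ (⊤ : Subgroup H), ¬ IsScal (r 0 (x * k * x⁻¹ * k⁻¹)).1 := by
    by_contra! e
    have := scal_of_comm (by rwa [← MonoidHom.range_eq_map]) e
    rw [q1, scal_diag] at this
    exact h.fh.om_ne (k := 1) (l := 10) (by norm_num) (by rwa [pow_one])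
  obtain ⟨_, ⟨z, ⟨z0, z2⟩, rfl⟩, e⟩ := h.slin_map h1 0 (r0.ker ⊓
    (MonoidHom.pi fun i => GeneralLinearGroup.det.comp (r i)).ker) ⟨comm_r0 r0 x k,
      MonoidHom.mem_ker.2 (funext fun i => by
        show GeneralLinearGroup.det.comp (r i) _ = 1
        simp only [map_mul, map_inv, mul_inv_cancel_comm, mul_inv_cancel])⟩ hk
    (-1) (by simp [det_neg])
  choose c hc using h.TB h1 (g := z) (i := 0) ⟨-1, by simp [e]⟩
  have c2 : ∀ i, c i = 1 ∨ c i = -1 := fun i => by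
    have b2 : (r i z).1.det = 1 := congrArg Units.val (congrFun (MonoidHom.mem_ker.1 z2) i)
    rwa [hc, det_smul, det_one, mul_one, Fintype.card_fin, sq_eq_one_iff] at b2
  have c0 : c 0 = -1 := by
    have := congrFun (congrFun ((hc 0).symm.trans e) 0) 0
    simpa using this
  obtain ⟨a0, a1, a2⟩ := h.ha
  choose! b hb using a2
  let d : Fin 11 → F := fun x => if x = 0 then 1 else c (b x)
  have d1 : ∀ i, d (a i) = c i := fun i => by
    simp only [d, if_neg (a0 i)]; rw [← a1 _ _ (hb _ (a0 i))]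
  have d2 : ∀ i, d (-a i) = c i := fun i => by
    have n := neg_ne_zero.2 (a0 i)
    simp only [d, if_neg n]
    rw [← a1 i _ ((hb _ n).symm.imp neg_injective.eq_iff.1 neg_eq_iff_eq_neg.1)]
  have hD : D d := h.toD d z (by
      rw [show r0 z = 1 from z0]; ext i j; fin_cases i; fin_cases j; simp [d]) fun i => by
    rw [hc, d1, d2]; ext i j; fin_cases i <;> fin_cases j <;> simp
  refine signs h.fh.two d (by simp [d]) (fun x => ?_) (fun x => ?_) ⟨a 0, by rw [d1, c0]⟩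
    fun k y y0 e y' y1 => ?_
  · by_cases x0 : x = 0
    · rw [x0, neg_zero]
    · rcases hb x x0 with e | e <;> rw [e] <;> simp only [neg_neg, d1, d2]
  · simp only [d]; split_ifs
    exacts [Or.inl rfl, c2 _]
  · obtain ⟨w, hw⟩ := h.ofD _ (h.shiftn d hD k)
    have s : ∀ y, y ≠ 0 → (d (y + k) = d (-y + k) ↔ IsScal (r (b y) w).1) := fun y y0 => by
      rw [hw, scal_diag]
      rcases hb y y0 with e | e
      · rw [← e]
      · rw [← e, ← neg_eq_iff_eq_neg.2 e, eq_comm]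
    exact (s y' y1).2 (h.TB h1 ((s y y0).1 e) _)

omit h1 in
/-- the stabiliser is monomial -/
theorem monom (i : Fin 5) (g : H) :
    (r i g 0 0 = 0 ∧ r i g 1 1 = 0) ∨ (r i g 0 1 = 0 ∧ r i g 1 0 = 0) := by
  obtain ⟨g', hg⟩ := h.cycn (-i) g
  rw [← hg i, add_neg_cancel]
  by_contra e
  rw [not_or, not_and_or, not_and_or] at e
  exact h.T_odd (h.slin_r1 g' e.1 e.2)

omit h1 in
theorem mono (i : Fin 5) (g : H) {x y : F} (hg : (r i g).1 = !![x, y; y, x]) : x = 0 ∨ y = 0 := by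
  have := h.monom i g
  simpa [hg] using this

end TS

end Cfsg.Agent.H5.C11
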