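import Cfsg.Agent.H5.C11.TO
import Cfsg.Agent.H8.C11.C0

/-! The T-lemma in the concrete model. -/

set_option autoImplicit false
set_option linter.unusedSimpArgs false
set_option linter.unusedSectionVars false
set_option linter.unusedVariables false

namespace Cfsg.Agent.H5.C11

open Matrix Cfsg.Agent.H5.T3 Cfsg.Agent.H5.C5 Cfsg.Agent.H8.C11

variable {F : Type*} [Field F] {M : Subgroup (GL (Fin 11) F)} {p : ℕ} {ω : F}

theorem fh_of (h : Hy p ω M) : FH p ω :=
  ⟨h.prime, h.char, h.finF, h.cd, h.one11, by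
    simpa using om_pow h.om h.eleven (k := 1) (by norm_num)⟩

theorem sh_of_u (h : Hy p ω M) {X : M11 F} (hu : X * uu ω = uu ω * X) : Sh X :=
  (fh_of h).sh_of_comm (w := fun j => (j : ℕ) ^ 2 % 11) (fun j => Nat.mod_mod _ _) hu

/-- an element of `M` commuting with `u` is monomial on each plane -/
theorem T_hy (h : Hy p ω M) (hn : ¬ SLin M) {X : M11 F} (hX : InM M X) (hu : X * uu ω = uu ω * X)
    {a : Fin 11} (ha : a ≠ 0) : (X a a = 0 ∧ X (-a) (-a) = 0) ∨ (X a (-a) = 0 ∧ X (-a) a = 0) :=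
  T_mono (fh_of h) h.hρ ⟨σ, h.hσ, fun i j _ b => if_neg (by clear * - b; revert i j; decide),
      (σ_apply 1 1).trans (if_neg (by decide)), (σ_apply 10 10).trans (if_neg (by decide))⟩
    (fun _ => sub_of_pm (h.hτ.inv ττ') (· + 10) (· + 1) (by decide) (one_mul 1) fun _ _ => rfl)
    (fun _ => sub_of_pm h.hδ' (4 * ·) (3 * ·) (by decide) (one_mul 1) fun _ _ => rfl)
    (fun _ => sub_of_pm h.hσ (10 * ·) (-·) (by decide) (e := -1) (by simp) fun _ _ => rfl)
    hn hX (sh_of_u h hu) ha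

theorem neg_pl (k : Fin 5) : -pl k 0 = pl k 1 := by revert k; decide

/-- the same on the plane `W k` -/
theorem T_pl (h : Hy p ω M) (hn : ¬ SLin M) (g : CC M) (hu : g.1.1 * uu ω = uu ω * g.1.1) (k : Fin 5) :
    g.1.1 (pl k 0) (pl k 0) = 0 ∨ g.1.1 (pl k 0) (pl k 1) = 0 := by
  rw [← neg_pl]
  exact (T_hy h hn (InM.of g.2.1) hu (pl_ne k 0)).imp And.left And.left

theorem sh_pl {X : M11 F} (sh : Sh X) {k l : Fin 5} (e : k ≠ l) (a b : Fin 2) :
    X (pl k a) (pl l b) = 0 :=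
  sh _ _ (by clear * - e; revert k l a b; decide) (by clear * - e; revert k l a b; decide)

/-- OUTPUT T: an element of `C_M(σ, u)` is diagonal on both parts, with ratio `±1` on each plane -/
theorem T_A (h : Hy p ω M) (hn : ¬ SLin M) (g : CC M) (hu : g.1.1 * uu ω = uu ω * g.1.1) :
    ∃ (d0 : F) (d e : Fin 5 → F), (ru h.two M g).1 = diagonal d ∧
      (rv h.two M g).1 = diagonal (Fin.cons d0 e) ∧ (∀ k, e k = d k ∨ e k = -d k) ∧
      ((∀ k, e k = d k) → ∃ D : Fin 11 → F, g.1.1 = diagonal D ∧ D 0 = d0 ∧ ∀ k a, D (pl k a) = d k) := by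
  have sh := sh_of_u h hu
  refine ⟨g.1.1 0 0, fun k => g.1.1 (pl k 0) (pl k 0) - g.1.1 (pl k 0) (pl k 1),
    fun k => g.1.1 (pl k 0) (pl k 0) + g.1.1 (pl k 0) (pl k 1), ?_, ?_, fun k => ?_, fun e => ?_⟩
  · ext k l
    rw [ru_apply, diagonal_apply]
    split_ifs with e
    · rw [e]
    · rw [sh_pl sh e, sh_pl sh e, sub_zero]
  · have z0 : ∀ l, g.1.1 0 (pl l 0) = 0 := fun l =>
      sh _ _ (pl_ne _ _).symm (by clear * -; revert l; decide)
    have z1 : ∀ l, g.1.1 (pl l 0) 0 = 0 := fun l => sh _ _ (pl_ne _ _) (pl_ne _ _)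
    ext k l
    refine Fin.cases ?_ (fun k => ?_) k <;> refine Fin.cases ?_ (fun l => ?_) l
    · simp [-rs'_val, rv_00]
    · simp [-rs'_val, rv_0s, z0, (Fin.succ_ne_zero _).symm]
    · simp [-rs'_val, rv_s0, z1]
    · rw [rv_ss, diagonal_apply]
      split_ifs with e
      · rw [Fin.succ_inj.1 e]; simp
      · have e' : k ≠ l := fun z => e (z ▸ rfl)
        rw [sh_pl sh e', sh_pl sh e', add_zero]
  · rcases T_pl h hn g hu k with e | e <;> simp [e]
  · have z : ∀ k, g.1.1 (pl k 0) (pl k 1) = 0 := fun k =>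
      mul_left_cancel₀ h.two (by linear_combination e k)
    have dg : g.1.1.IsDiag := fun i j hij => by
      by_cases e' : i = -j
      · rcases pl_cases j with rfl | ⟨k, a, rfl⟩
        · exact absurd e' hij
        · subst e'
          fin_cases a
          · exact (congrArg₂ g.1.1 (neg_pl k) rfl).trans ((CC_10 h.two g k k).trans (z k))
          · exact (congrArg₂ g.1.1 (neg_eq_iff_eq_neg.2 (neg_pl k).symm) rfl).trans (z k)
      · exact sh i j hij e'
    refine ⟨g.1.1.diag, dg.diagonal_diag.symm, rfl, fun k a => ?_⟩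
    fin_cases a
    · simp [z]
    · simp [z, CC_11 h.two]

/-- elements of odd order in `C_M(σ, u)` are diagonal -/
theorem T_oddA (h : Hy p ω M) (hn : ¬ SLin M) (g : CC M) (hu : g.1.1 * uu ω = uu ω * g.1.1) {m : ℕ}
    (hm : Odd m) (hg : g ^ m = 1) : ∃ D : Fin 11 → F, g.1.1 = diagonal D ∧ ∀ i, D (10 * i) = D i := by
  obtain ⟨d0, d, e, a, b, c, k⟩ := T_A h hn g hu
  have a1 : ∀ k, d k ^ m = 1 := fun k => by
    have : (ru h.two M g).1 ^ m = 1 := by rw [← Units.val_pow_eq_pow_val, ← map_pow, hg]; simp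
    rw [a, diagonal_pow] at this
    simpa using congrFun (congrFun this k) k
  have b1 : ∀ k, e k ^ m = 1 := fun k => by
    have : (rv h.two M g).1 ^ m = 1 := by rw [← Units.val_pow_eq_pow_val, ← map_pow, hg]; simp
    rw [b, diagonal_pow] at this
    simpa using congrFun (congrFun this k.succ) k.succ
  obtain ⟨D, e1, -, e2⟩ := k fun k => (c k).resolve_right fun z => h.two (by
    have := b1 k
    rw [z, hm.neg_pow, a1] at this
    linear_combination -this)
  refine ⟨D, e1, fun i => ?_⟩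
  rcases pl_cases i with rfl | ⟨k, a, rfl⟩
  · rfl
  · rw [pl_neg, e2, e2]

/-- `C_M(σ, u)` is abelian -/
theorem T_comm (h : Hy p ω M) (hn : ¬ SLin M) (g g' : CC M) (hu : g.1.1 * uu ω = uu ω * g.1.1)
    (hu' : g'.1.1 * uu ω = uu ω * g'.1.1) : g * g' = g' * g := by
  obtain ⟨d0, d, e, a, b, -⟩ := T_A h hn g hu
  obtain ⟨d0', d', e', a', b', -⟩ := T_A h hn g' hu'
  refine CC_ext h.two (Units.ext ?_) (Units.ext ?_)
  · simp only [map_mul, Units.val_mul, a, a', diagonal_mul_diagonal, mul_comm]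
  · simp only [map_mul, Units.val_mul, b, b', diagonal_mul_diagonal, mul_comm]

end Cfsg.Agent.H5.C11
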