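import Cfsg.Agent.H5.C11.T

/-! The stabiliser of the planes `⟨e_a, e_{-a}⟩` is monomial (entrywise form). -/

set_option autoImplicit false
set_option linter.unusedSimpArgs false
set_option linter.unusedSectionVars false
set_option linter.unusedVariables false

namespace Cfsg.Agent.H5.C11

open Matrix Cfsg.Agent.H5.T3 Cfsg.Agent.H5.C5 Cfsg.Agent.H7

variable {F : Type*} [Field F] {M : Subgroup (GL (Fin 11) F)}

/-- conjugation by a signed permutation matrix -/
theorem sub_of_pm {P : Matrix (Fin 11) (Fin 11) F} (hP : InM M P) (f g : Fin 11 → Fin 11)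
    (hfg : ∀ i a, f i = a ↔ i = g a) {e : F} (he : e * e = 1)
    (h1 : ∀ a i, P a i = if f i = a then e else 0) {X : Matrix (Fin 11) (Fin 11) F} (hX : InM M X) :
    InM M (X.submatrix g g) := by
  have k : ∀ X : Matrix (Fin 11) (Fin 11) F, P * X * Pᵀ = X.submatrix g g := fun X => by
    ext a b
    simp only [mul_apply, transpose_apply, h1, hfg, ite_mul, zero_mul, mul_ite, mul_zero,
      Finset.sum_ite_eq', Finset.mem_univ, if_true, submatrix_apply]
    rw [mul_right_comm, he, one_mul]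
  have inj : Function.Injective g := fun a b e => ((hfg _ a).2 rfl).symm.trans ((hfg _ b).2 e)
  exact ((hP.mul hX).mul (hP.inv (Y := Pᵀ) (by
    have := k 1
    rwa [Matrix.mul_one, submatrix_one _ inj] at this))).congr (k X)

/-- the overgroup is stable under the index map `g` -/
def Sy (M : Subgroup (GL (Fin 11) F)) (g : Fin 11 → Fin 11) : Prop :=
  ∀ X, InM M X → InM M (X.submatrix g g)

theorem Sy.comp {f g : Fin 11 → Fin 11} (hf : Sy M f) (hg : Sy M g) : Sy M (f ∘ g) := fun X hX =>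
  hg _ (hf _ hX)

theorem Sy.iter {f : Fin 11 → Fin 11} (hf : Sy M f) (n : ℕ) : Sy M f^[n] := by
  induction n with
  | zero => exact fun X hX => hX
  | succ n ih => exact ih.comp hf

theorem Sy.of_eq {f g : Fin 11 → Fin 11} (hf : Sy M f) (e : ∀ x, f x = g x) : Sy M g :=
  funext e ▸ hf

/-- one full root subgroup gives everything -/
theorem big11 (s1 : Sy M (· + 1)) (s3 : Sy M (3 * ·)) (sn : Sy M (-·)) {i j : Fin 11} (hij : i ≠ j)
    (hX : ∀ c, InM M (transvection i j c)) : SLin M := by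
  have k5 : ∀ i j i' j' : Fin 11, i ≠ j → i' ≠ j' → ∃ a : Fin 5, ∃ b : Fin 11, ∃ c : Fin 2,
      (· + 1)^[b] ((3 * ·)^[a] ((-·)^[c] i')) = i ∧
        (· + 1)^[b] ((3 * ·)^[a] ((-·)^[c] j')) = j := by
    have : ∀ i' j' : Fin 11, i' ≠ j' → ∀ d : Fin 11, d ≠ 0 → ∃ a : Fin 5, ∃ c : Fin 2,
      (3 * ·)^[a] ((-·)^[c] i') - (3 * ·)^[a] ((-·)^[c] j') = d := by decide +kernel
    have t : ∀ x y : Fin 11, ∃ b : Fin 11, ∀ z, (· + 1)^[b] z = z + (y - x) := by decide +kernel
    intro i j i' j' h h'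
    obtain ⟨a, c, e⟩ := this i' j' h' (i - j) (sub_ne_zero.2 h)
    obtain ⟨b, hb⟩ := t ((3 * ·)^[a] ((-·)^[c] i')) i
    refine ⟨a, b, c, by rw [hb]; abel, ?_⟩
    rw [hb, ← sub_sub_cancel i j, ← e]; abel
  have k6 : ∀ (a : Fin 5) (b : Fin 11) (c : Fin 2), Function.Injective
    ((· + 1 : Fin 11 → Fin 11)^[b] ∘ (3 * ·)^[a] ∘ (-·)^[c]) := fun a b c =>
      (Function.Injective.iterate (by decide) _).comp ((Function.Injective.iterate (by decide) _).comp
        (Function.Injective.iterate (by decide) _))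
  refine slin_of_elem fun i' j' hij' c => ?_
  obtain ⟨a, b, d, e1, e2⟩ := k5 i j i' j' hij hij'
  refine (((s1.iter b).comp ((s3.iter a).comp (sn.iter d))) _ (hX c)).congr ?_
  have inj := k6 a b d
  subst e1 e2
  change (transvection (((· + 1 : Fin 11 → Fin 11)^[b] ∘ (3 * ·)^[a] ∘ (-·)^[d]) i')
    (((· + 1 : Fin 11 → Fin 11)^[b] ∘ (3 * ·)^[a] ∘ (-·)^[d]) j') c).submatrix _ _ = _
  generalize ((· + 1 : Fin 11 → Fin 11)^[b] ∘ (3 * ·)^[a] ∘ (-·)^[d]) = f at inj
  ext x y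
  simp [transvection, single_apply, one_apply, inj.eq_iff]

/-- block shape -/
def Sh (X : Matrix (Fin 11) (Fin 11) F) : Prop := ∀ i j, i ≠ j → i ≠ -j → X i j = 0

def HB (M : Subgroup (GL (Fin 11) F)) : Subgroup (GL (Fin 11) F) :=
  M ⊓ ⨅ i : Fin 11, Cm (diagonal fun x => if x = i ∨ x = -i then 1 else 0)

theorem mem_HB {g : GL (Fin 11) F} : g ∈ HB M ↔ g ∈ M ∧ Sh g.1 := by
  rw [HB, Subgroup.mem_inf, Subgroup.mem_iInf]
  refine and_congr Iff.rfl ?_
  refine ⟨fun h i j a b => ?_, fun h i => ?_⟩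
  · have := congrFun (congrFun (h j : g.1 * _ = _ * g.1) i) j
    simpa [mul_diagonal, diagonal_mul, a, b] using this
  · show g.1 * _ = _ * g.1
    ext x y
    rw [mul_diagonal, diagonal_mul]
    by_cases e : x = y
    · rw [e, mul_comm]
    by_cases e' : x = -y
    · subst e'
      simp only [neg_inj, neg_eq_iff_eq_neg, neg_neg, or_comm, mul_comm]
    · rw [h x y e e']; simp

theorem ex_HB {X : Matrix (Fin 11) (Fin 11) F} (hX : InM M X) (h : Sh X) : ∃ g : HB M, g.1.1 = X := by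
  obtain ⟨g, hg, rfl⟩ := hX
  exact ⟨⟨g, mem_HB.2 ⟨hg, h⟩⟩, rfl⟩

def res (M : Subgroup (GL (Fin 11) F)) {k : ℕ} (e : Fin k → Fin 11) (inj : Function.Injective e)
    (cl : ∀ s, ∃ t, e t = -e s) : HB M →* GL (Fin k) F :=
  MonoidHom.toHomUnits
    { toFun := fun g => g.1.1.submatrix e e
      map_one' := submatrix_one _ inj
      map_mul' := fun g g' => by
        ext s t
        simp only [Subgroup.coe_mul, Units.val_mul, submatrix_apply, mul_apply]
        refine (Fintype.sum_of_injective e inj _ _ (fun z hz => ?_) fun _ => rfl).symm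
        rw [(mem_HB.1 g.2).2 _ _ (fun a => hz ⟨s, a⟩) (fun a => hz ((cl s).imp fun u b => by
          rw [b, a, neg_neg])), zero_mul] }

theorem res_val {k : ℕ} (e : Fin k → Fin 11) (inj : Function.Injective e)
    (cl : ∀ s, ∃ t, e t = -e s) (g : HB M) : (res M e inj cl g).1 = g.1.1.submatrix e e := rfl

def aa : Fin 5 → Fin 11 := ![1, 4, 5, 9, 3]

def ee (i : Fin 5) : Fin 2 → Fin 11 := ![aa i, -aa i]

def q0 (M : Subgroup (GL (Fin 11) F)) := res M ![0] (by decide) (by decide)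

def qq (M : Subgroup (GL (Fin 11) F)) (i : Fin 5) :=
  res M (ee i) (by revert i; decide) (by revert i; decide)

theorem eq_of_sh {X Y : Matrix (Fin 11) (Fin 11) F} (hX : Sh X) (hY : Sh Y) (h0 : X 0 0 = Y 0 0)
    (h : ∀ i, X.submatrix (ee i) (ee i) = Y.submatrix (ee i) (ee i)) : X = Y := by
  ext x y
  rcases (by decide +kernel : ∀ x y : Fin 11, (x ≠ y ∧ x ≠ -y) ∨ (x = 0 ∧ y = 0) ∨
    ∃ i s t, x = ee i s ∧ y = ee i t) x y with ⟨a, b⟩ | ⟨rfl, rfl⟩ | ⟨i, s, t, rfl, rfl⟩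
  · rw [hX _ _ a b, hY _ _ a b]
  · exact h0
  · exact congrFun (congrFun (h i) s) t

theorem sh_diag (d : Fin 11 → F) : Sh (diagonal d) := fun i j a _ => diagonal_apply_ne _ a

theorem sub_diag (d : Fin 11 → F) (i : Fin 5) :
    (diagonal d).submatrix (ee i) (ee i) = !![d (aa i), 0; 0, d (-aa i)] := by
  rw [submatrix_diagonal _ _ (by revert i; decide)]
  ext s t; fin_cases s <;> fin_cases t <;> simp [ee]

variable {p : ℕ} {ω : F}

theorem ts_of (fh : FH p ω) (hρ : InM M (diagonal fun j => ω ^ (j : ℕ)))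
    (hσ : ∃ X, InM M X ∧ Sh X ∧ X 1 1 = 0 ∧ X 10 10 = 0)
    (s1 : Sy M (· + 1)) (s3 : Sy M (3 * ·)) (sn : Sy M (-·)) (hn : ¬ SLin M) :
    TS p ω (q0 M) (qq M) aa fun d => InM M (diagonal d) where
  fh := fh
  ha := by decide
  cyc g := by
    obtain ⟨g', hg⟩ := ex_HB (s3 _ (InM.of (mem_HB.1 g.2).1)) fun i j a b =>
      (mem_HB.1 g.2).2 _ _ (by clear * - a; revert i j; decide) (by clear * - b; revert i j; decide)
    refine ⟨g', fun i => Units.ext ?_⟩
    rw [qq, qq, res_val, res_val, hg, submatrix_submatrix,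
      show (3 * ·) ∘ ee (i + 1) = ee i by revert i; decide]
  exρ := by
    obtain ⟨g, hg⟩ := ex_HB hρ (sh_diag _)
    exact ⟨g, by rw [qq, res_val, hg, sub_diag]; simp [aa]⟩
  exσ := by
    obtain ⟨X, a, b, c, d⟩ := hσ
    obtain ⟨g, rfl⟩ := ex_HB a b
    exact ⟨g, c, d⟩
  nbig hb := hn (big11 s1 s3 sn (i := 1) (j := 10) (by decide) fun c => by
    obtain ⟨z, z0, z1, z2⟩ := hb c
    refine (InM.of (mem_HB.1 z.2).1).congr (eq_of_sh (mem_HB.1 z.2).2 (fun i j a b => ?_) ?_ fun i => ?_)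
    · have : ¬ (1 = i ∧ 10 = j) := by rintro ⟨rfl, rfl⟩; exact b rfl
      simp [transvection, single_apply, one_apply, a, this]
    · have : (q0 M z).1 0 0 = (1 : GL (Fin 1) F).1 0 0 := by rw [z0]
      rw [q0, res_val] at this
      simpa [transvection, single_apply] using this
    · by_cases e : i = 0
      · subst e
        rw [qq, res_val] at z2
        rw [z2]
        ext s t; fin_cases s <;> fin_cases t <;> simp +decide [transvection, single_apply, one_apply, ee, aa]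
      · have := congrArg Units.val (z1 i e)
        rw [qq, res_val] at this
        rw [this]
        have k : ∀ s t, ¬ (1 = ee i s ∧ 10 = ee i t) := by clear * - e; revert i; decide
        have inj : Function.Injective (ee i) := by clear * -; revert i; decide
        ext s t
        simp [transvection, single_apply, one_apply, k, inj.eq_iff])
  toD d z z0 z1 := by
    refine (InM.of (mem_HB.1 z.2).1).congr (eq_of_sh (mem_HB.1 z.2).2 (sh_diag d) ?_ fun i => ?_)
    · have := congrFun (congrFun z0 0) 0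
      rw [q0, res_val] at this
      simpa using this
    · rw [sub_diag, ← z1, qq, res_val]
  ofD d hd := by
    obtain ⟨g, hg⟩ := ex_HB hd (sh_diag _)
    exact ⟨g, fun i => by rw [qq, res_val, hg, sub_diag]⟩
  shift d hd := (s1 _ hd).congr (submatrix_diagonal _ _ (by decide))

/-- the T-lemma: block-shaped elements of a proper overgroup are monomial -/
theorem T_mono (fh : FH p ω) (hρ : InM M (diagonal fun j => ω ^ (j : ℕ)))
    (hσ : ∃ X, InM M X ∧ Sh X ∧ X 1 1 = 0 ∧ X 10 10 = 0)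
    (s1 : Sy M (· + 1)) (s3 : Sy M (3 * ·)) (sn : Sy M (-·)) (hn : ¬ SLin M)
    {X : Matrix (Fin 11) (Fin 11) F} (hX : InM M X) (sh : Sh X) {a : Fin 11} (ha : a ≠ 0) :
    (X a a = 0 ∧ X (-a) (-a) = 0) ∨ (X a (-a) = 0 ∧ X (-a) a = 0) := by
  obtain ⟨g, rfl⟩ := ex_HB hX sh
  obtain ⟨i, rfl | rfl⟩ := (ts_of fh hρ hσ s1 s3 sn hn).ha.2.2 a ha
  · exact (ts_of fh hρ hσ s1 s3 sn hn).monom i g
  · rw [neg_neg]
    exact ((ts_of fh hρ hσ s1 s3 sn hn).monom i g).imp And.symm And.symm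

/-- commuting with `diag ω^{j²}` gives the block shape -/
theorem FH.sh_of_comm (fh : FH p ω) {w : Fin 11 → ℕ} (hw : ∀ j, w j % 11 = (j : ℕ) ^ 2 % 11)
    {X : Matrix (Fin 11) (Fin 11) F}
    (h : X * diagonal (fun j => ω ^ w j) = diagonal (fun j => ω ^ w j) * X) : Sh X := fun i j a b => by
  have := congrFun (congrFun h i) j
  rw [mul_diagonal, diagonal_mul, mul_comm] at this
  refine by_contra fun e => fh.om_ne (k := w j) (l := w i) ?_ (mul_right_cancel₀ e this)
  have k : ((j : ℕ) ^ 2 + 10 * (i : ℕ) ^ 2) % 11 ≠ 0 := by clear * - a b; revert i j; decide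
  have := hw i
  have := hw j
  omega

/-- OUTPUT T: an element centralising `u` and `σ` -/
theorem T_out (fh : FH p ω) (hρ : InM M (diagonal fun j => ω ^ (j : ℕ)))
    (hσ : ∃ X, InM M X ∧ Sh X ∧ X 1 1 = 0 ∧ X 10 10 = 0)
    (s1 : Sy M (· + 1)) (s3 : Sy M (3 * ·)) (sn : Sy M (-·)) (hn : ¬ SLin M)
    {X : Matrix (Fin 11) (Fin 11) F} (hX : InM M X) (sh : Sh X) (sy : ∀ i j, X (-i) (-j) = X i j)
    {a : Fin 11} (ha : a ≠ 0) : X a a = 0 ∨ X a (-a) = 0 :=
  (T_mono fh hρ hσ s1 s3 sn hn hX sh ha).imp And.left And.left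

end Cfsg.Agent.H5.C11
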