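import Cfsg.Agent.H5.C11.RedX
import Cfsg.Agent.H4.C11.B2

/-! The X-lemma from (γ). -/

set_option autoImplicit false

namespace Cfsg.Agent.H5.C11

open Matrix Cfsg.Agent.L.X11

variable {F : Type*} [Field F] {g : F} {C : Type*} [Group C] {p : ℕ} {ω : F} {π : C →* GL (Fin 5) F}
  {ψ : C →* GL (Fin 6) F} {σ u f : C}

theorem X_of_gamma (h : XS p ω g π ψ σ u f)
    (hγ : ∀ x : C, Rp h.hg (π x) 0 xZ → ∃ k : C, Rp h.hg (π k) 0 RZ)
    (c : C) (hc : InY u f c) (c2 : c * c = 1 ∨ c * c = σ) : c = 1 ∨ c = σ :=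
  X_of h hγ (fun _ _ _ a b c d e => h.beta a b (mul_self_eq_one_iff.2 c) d e) c hc c2

end Cfsg.Agent.H5.C11
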